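import Cfsg.Agent.Lib.LeechP.Base
import Cfsg.Agent.Lib.Leech.Order
import Cfsg.Agent.Lib.Leech.MinVec
import Cfsg.Agent.Lib.PermChain.Basic
import Cfsg.Agent.Lib.U62Iso.Data

/-!
# The stabiliser of a pair of minimal vectors, as a group of permutations of 891 vectors
-/

set_option autoImplicit false
set_option maxRecDepth 100000

namespace Cfsg.Agent.Lib.U62Iso

open Cfsg Subgroup MulAction
open Cfsg.Agent.Lib.Golay.Core Cfsg.Agent.Lib.Leech.Basic Cfsg.Agent.Lib.Leech.Lat
  Cfsg.Agent.Lib.Leech.Vec Cfsg.Agent.Lib.Leech.Reach Cfsg.Agent.Lib.Leech.Word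
  Cfsg.Agent.Lib.Leech.Cert Cfsg.Agent.Lib.Leech.Packed _root_.Cfsg.Agent.Lib.PermComp _root_.Cfsg.Agent.Lib.PermComp.Core
  Cfsg.Agent.Lib.Leech.ConfigB Cfsg.Agent.Lib.Leech.CertData
  Cfsg.Agent.Lib.Leech.CertBase Cfsg.Agent.Lib.Leech.CertLev
  Cfsg.Agent.Lib.LeechP Cfsg.Agent.Lib.U62Iso.Data Cfsg.Agent.Lib.Leech Cfsg.Agent.Lib.Leech.Order
  Cfsg.Agent.Lib.Leech.SimpleConf Cfsg.Agent.Lib.PermChain

local notation "RR" => Rep 10 1023 (Equiv.refl (Fin 891))

/-- The conditions. -/
def conds : List (ℕ × ℕ × ℕ) := [(nV1, 16, 0), (root16, 0, 0)]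

/-- The vectors fixed. -/
def R : List ℕ := [nV1, root16]

/-- The list of the vectors of the class. -/
def e0 : Chunk := (ch0, 891, 0, 1329227995784915872903807060280344576)

/-- The test of a vector of the class. -/
def P0 : ℕ → ℕ → Bool := fun x _ => classB 32 conds x

theorem ok0 : chunkB P0 e0 = true := by decide +kernel

theorem cnt_eq : cntL (condsB conds) L16 = 891 := by decide +kernel

theorem root_cl : Cl 32 [(nV1, 16, 0)] (dec root16) := classB_iff.1 (by decide +kernel)

theorem hR : ∀ c ∈ conds, c.1 ∈ R ∧ dec c.1 ∈ leechLattice := by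
  intro c hc
  simp only [conds, List.mem_cons, List.not_mem_nil, or_false] at hc
  rcases hc with rfl | rfl
  · exact ⟨by simp [R], nV1_mem⟩
  · exact ⟨by simp [R], root_cl.1⟩

theorem count_le : {w | Cl 32 conds w}.ncard ≤ (elems e0).card := by
  have h1 := count_child (c0 := [(nV1, 16, 0)]) (c1 := conds) (by
    intro c hc
    simp only [conds, List.mem_cons, List.not_mem_nil, or_false] at hc ⊢
    tauto) (U := U16) (fun w hw => mem_U16_of hw)
  rw [U16, card_filter_unionL all16 chain16, cnt_eq] at h1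
  rw [card_elems ok0]
  exact h1

theorem cover : ∀ w, Cl 32 conds w → ∃ x ∈ elems e0, dec x = w :=
  cover_of_card (fun x hx => by
      obtain ⟨k, hk⟩ := mem_elems_P ok0 hx
      exact classB_iff.1 hk) (fun x hx => mem_elems_lt hx) (finite_Cl conds) count_le

/-- The numbering of the 891 vectors. -/
theorem num : Num R conds ch0 891 := by
  refine ⟨hR, fun i hi => ?_, fun i hi j hj hij => ?_, fun w hw => ?_⟩
  · exact classB_iff.1 ((chunk_parts ok0).1 i hi)
  · exact chunk_inj ok0 (Finset.mem_coe.2 (Finset.mem_range.2 hi)) (Finset.mem_coe.2 (Finset.mem_range.2 hj)) hij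
  · obtain ⟨x, hx, rfl⟩ := cover w hw
    obtain ⟨i, hi, rfl⟩ := Finset.mem_image.1 hx
    exact ⟨i, Finset.mem_range.1 hi, rfl⟩

/-! ## The order -/

/-- The first vector. -/
def v0 : L := ⟨dec nV1, nV1_mem⟩
/-- The second vector. -/
def z0 : L := ⟨dec root16, root_cl.1⟩

theorem hR1 : ∀ c ∈ [(nV1, 16, 0)], c.1 ∈ [nV1] ∧ dec c.1 ∈ leechLattice := by
  intro c hc
  have : c = (nV1, 16, 0) := by simpa using hc
  subst this
  exact ⟨by simp, nV1_mem⟩

theorem orbit_z0 : orbit (FixG [nV1]) z0 = {y : L | Cl 32 [(nV1, 16, 0)] (y : GolayPt → ℤ)} := by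
  ext y
  constructor
  · intro hy
    obtain ⟨g, rfl⟩ := mem_orbit_iff.1 hy
    exact Cl_of_rel hR1 ⟨z0.2, g.1, g.2, rfl⟩ root_cl
  · intro hy
    have h0 : Rel (FixG [nV1]) z0.1 y.1 := (rel16 root_cl).trans (rel16 hy).symm
    obtain ⟨a, ha, hay⟩ := rel_iff.1 h0
    exact mem_orbit_iff.2 ⟨⟨a, ha⟩, hay⟩

theorem FixG_one : FixG [nV1] = stabilizer Co0 v0 := by
  ext g
  constructor
  · intro h
    exact h nV1 (by simp) nV1_mem
  · intro h r hr hr'
    have : r = nV1 := by simpa using hr
    subst this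
    exact h

theorem FixG_two : FixG R = FixG [nV1] ⊓ stabilizer Co0 z0 := by
  ext g
  constructor
  · intro h
    exact ⟨fun r hr hr' => h r (by
      have : r = nV1 := by simpa using hr
      simp [R, this]) hr', h root16 (by simp [R]) root_cl.1⟩
  · rintro ⟨h1, h2⟩ r hr hr'
    simp only [R, List.mem_cons, List.not_mem_nil, or_false] at hr
    rcases hr with rfl | rfl
    · exact h1 _ (by simp) hr'
    · exact h2

theorem card_G : Nat.card (FixG R) = 9196830720 := by
  have h1 := card_inf orbit_z0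
  rw [ncard_L_Cl, ncard16, FixG_one, card_stab32 (v := v0) (by
    show sqNorm (dec nV1) = 32
    exact (by decide +kernel : classB 32 [] nV1 = true) |> classB_iff.1 |>.2.1)] at h1
  rw [FixG_two, FixG_one]
  omega

/-! ## The group of permutations -/

theorem chk_a : wordOK ch0 891 10 1023 (u_T.getD 0 0) wa = true := by decide +kernel
theorem chk_b : wordOK ch0 891 10 1023 (u_T.getD 1 0) wb = true := by decide +kernel
theorem fix_a : R.all (fun r => runW wa r r) = true := by decide +kernel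
theorem fix_b : R.all (fun r => runW wb r r) = true := by decide +kernel

/-- The group, as a group of permutations of the 891 vectors. -/
noncomputable def PP : Subgroup (Equiv.Perm (Fin 891)) := num.phi.range

/-- The first generator. -/
def ca : ℕ := u_T.getD 0 0
/-- The second generator. -/
def cb : ℕ := u_T.getD 1 0

theorem u_T_eq : u_T = [ca, cb] := by decide +kernel

theorem rep_a : ∃ g ∈ PP, RR ca g :=
  ⟨_, ⟨_, rfl⟩, num.rep_word (hu := wG_mem_FixG fix_a) chk_a⟩

theorem rep_b : ∃ g ∈ PP, RR cb g :=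
  ⟨_, ⟨_, rfl⟩, num.rep_word (hu := wG_mem_FixG fix_b) chk_b⟩

theorem gens_rep : ∀ c ∈ u_T, ∃ g ∈ PP, RR c g := by
  rw [u_T_eq]
  intro c hc
  simp only [List.mem_cons, List.not_mem_nil, or_false] at hc
  rcases hc with rfl | rfl
  · exact rep_a
  · exact rep_b

/-- The group generated by the two generators. -/
noncomputable abbrev U : Subgroup (Equiv.Perm (Fin 891)) := H 10 1023 (Equiv.refl (Fin 891)) u_T

theorem U_le : U ≤ PP := by
  refine (closure_le _).2 ?_
  rintro g ⟨c, hc, hg⟩
  obtain ⟨g', hg', hr⟩ := gens_rep c hc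
  rw [hg.unique hr]
  exact hg'

theorem chk_id : Core.allL (fun i => Nat.beq (app 10 1023 u_idc i) i) (List.range 891) = true := by
  decide +kernel

theorem hid : ∀ i < 891, app 10 1023 u_idc i = i := fun i hi =>
  Nat.eq_of_beq_eq_true ((Core.allL_eq_true _ _).1 chk_id i (List.mem_range.2 hi))

theorem slp_ok : Core.slpCheck 891 10 1023 u_idc u_S u_prog u_T.reverse u_T.length = true := by decide +kernel

theorem chain_ok : chainB 10 1023 891 u_S u_chain [] = true := by decide +kernel

theorem prod_eq : prodL u_chain = 9196830720 := by decide +kernel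

/-- The strong generators are in the group. -/
theorem strong_rep : ∀ c ∈ u_S, ∃ g ∈ U, RR c g := by
  apply Core.slp_sound (by norm_num) hid U u_S u_prog u_T.reverse u_T.length (by simp) _ slp_ok
  intro c hc
  have hc' : c ∈ u_T := by simpa using hc
  obtain ⟨g, -, hg⟩ := gens_rep c hc'
  exact ⟨g, H_of_rep hc' hg, hg⟩

theorem card_U_le : Nat.card U ≤ 9196830720 := by
  have h1 : Nat.card U ≤ Nat.card PP := Subgroup.card_le_of_le U_le
  have h2 : Nat.card PP ≤ Nat.card (FixG R) := Nat.card_le_card_of_surjective _ (MonoidHom.rangeRestrict_surjective num.phi)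
  rw [card_G] at h2
  omega

theorem main_u : Nat.card U = 9196830720 ∧
    ∀ g ∈ U, (∀ b : Fin 891, (b : ℕ) ∈ u_chain.reverse.map Prod.fst → g b = b) → g = 1 :=
  chain_main strong_rep chain_ok prod_eq (by norm_num) card_U_le

theorem card_U : Nat.card U = 9196830720 := main_u.1

theorem base_eq : u_chain.reverse.map Prod.fst = [nat_lit 13, nat_lit 9, nat_lit 6, nat_lit 3, nat_lit 7, nat_lit 5, nat_lit 2, nat_lit 0, nat_lit 1] := by decide +kernel

/-- An element of `U` fixing the base is trivial. -/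
theorem U_base : ∀ g ∈ U, (∀ b : Fin 891, (b : ℕ) ∈ [nat_lit 13, nat_lit 9, nat_lit 6, nat_lit 3, nat_lit 7, nat_lit 5, nat_lit 2, nat_lit 0, nat_lit 1] → g b = b) → g = 1 := by
  intro g hg hfix
  refine main_u.2 g hg (fun b hb => hfix b ?_)
  rw [base_eq] at hb
  exact hb

theorem phi_inj : Function.Injective num.phi := by
  have hs : Function.Surjective num.phi.rangeRestrict := MonoidHom.rangeRestrict_surjective _
  have h1 : Nat.card U ≤ Nat.card PP := Subgroup.card_le_of_le U_le
  have hb : Function.Bijective num.phi.rangeRestrict :=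
    hs.bijective_of_nat_card_le (by
      show Nat.card (FixG R) ≤ Nat.card PP
      rw [card_G]
      rw [card_U] at h1
      exact h1)
  exact MonoidHom.rangeRestrict_injective_iff.1 hb.1

theorem PP_eq : PP = U := by
  refine (Subgroup.eq_of_le_of_card_ge U_le ?_).symm
  rw [card_U]
  have : Nat.card PP ≤ Nat.card (FixG R) := Nat.card_le_card_of_surjective _ (MonoidHom.rangeRestrict_surjective num.phi)
  rw [card_G] at this
  exact this

theorem G_iso : Nonempty (FixG R ≃* U) :=
  ⟨(MonoidHom.ofInjective phi_inj).trans (MulEquiv.subgroupCongr PP_eq)⟩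

/-! ## Arbitrary pairs -/

variable {v w : L}

/-- A pair can be moved to the reference pair. -/
theorem exists_to_pair (hv : sqNorm (v : GolayPt → ℤ) = 32) (hw : sqNorm (w : GolayPt → ℤ) = 32)
    (hd : dotInt (v : GolayPt → ℤ) (w : GolayPt → ℤ) = -16) :
    ∃ t : Co0, Maps t [(-w, root16), (v, nV1)] := by
  obtain ⟨t, ht⟩ := MinVec.exists_to_ref v hv
  have ht' : Maps t [(v, nV1)] := by
    refine fun p hp => ?_
    have : p = (v, nV1) := by simpa using hp
    subst this
    rw [show (v, nV1).1 = v from rfl, ht]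
    rfl
  refine ht'.step (R := [nV1]) (by simp) (rel16 ?_) (rel16 root_cl)
  rw [cl1, ht'.dot (p := (v, nV1)) (by simp), sqNorm_smul]
  refine ⟨(t • (-w)).2, ?_, ?_⟩
  · show sqNorm (-(w : GolayPt → ℤ)) = _
    rw [show sqNorm (-(w : GolayPt → ℤ)) = sqNorm (w : GolayPt → ℤ) from by
      unfold sqNorm
      apply Finset.sum_congr rfl
      intro i _
      simp only [Pi.neg_apply]
      ring, hw]
    norm_num
  · show dotInt (-(w : GolayPt → ℤ)) (v : GolayPt → ℤ) = _
    rw [dotInt_neg_left, dotInt_comm, hd]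
    norm_num

/-- The stabiliser of two vectors. -/
theorem stab_iso (hv : sqNorm (v : GolayPt → ℤ) = 32) (hw : sqNorm (w : GolayPt → ℤ) = 32)
    (hd : dotInt (v : GolayPt → ℤ) (w : GolayPt → ℤ) = -16) :
    Nonempty (↥(stabilizer Co0 v ⊓ stabilizer Co0 w) ≃* FixG R) := by
  obtain ⟨t, ht⟩ := exists_to_pair hv hw hd
  have hneg : ∀ g : Co0, g • (-w) = -w ↔ g • w = w := by
    intro g
    rw [Cfsg.Agent.Lib.Leech.Lat.smul_neg]
    exact neg_injective.eq_iff
  have h1 : ∀ g : ↥(stabilizer Co0 v ⊓ stabilizer Co0 w), t * g.1 * t⁻¹ ∈ FixG R := by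
    rintro ⟨g, hg1, hg2⟩
    exact (mem_FixG_two ht g).2 ⟨(hneg g).2 hg2, hg1⟩
  have h2 : ∀ f : FixG R, t⁻¹ * f.1 * t ∈ stabilizer Co0 v ⊓ stabilizer Co0 w := by
    intro f
    have key := (mem_FixG_two ht (t⁻¹ * f.1 * t)).1 (by
      have : t * (t⁻¹ * f.1 * t) * t⁻¹ = f.1 := by group
      rw [this]
      exact f.2)
    exact ⟨key.2, (hneg _).1 key.1⟩
  refine ⟨{ toFun := fun g => ⟨t * g.1 * t⁻¹, h1 g⟩
            invFun := fun f => ⟨t⁻¹ * f.1 * t, h2 f⟩
            left_inv := fun g => ?_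
            right_inv := fun f => ?_
            map_mul' := fun a b => ?_ }⟩
  · apply Subtype.ext
    show t⁻¹ * (t * g.1 * t⁻¹) * t = g.1
    group
  · apply Subtype.ext
    show t * (t⁻¹ * f.1 * t) * t⁻¹ = f.1
    group
  · apply Subtype.ext
    show t * (a.1 * b.1) * t⁻¹ = (t * a.1 * t⁻¹) * (t * b.1 * t⁻¹)
    group

end Cfsg.Agent.Lib.U62Iso
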