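import Cfsg.Agent.Lib.F4Code.Basic
import Cfsg.Agent.Lib.PSUBridge.Basic
import Cfsg.Agent.Lib.U62Iso.SSide
import Cfsg.Agent.Lib.Classical.HermOrders
import Cfsg.Agent.S0819

/-!
# The stabiliser of a pair of minimal vectors is `PSU₆(2)`

The 891 vectors are matched with the maximal totally isotropic subspaces of the Hermitian space of dimension 6 over the
field with 4 elements, and the two generators of the group with elements of `SU₆(2)`.  The orders agree.
-/

set_option autoImplicit false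
set_option maxRecDepth 100000
set_option linter.unusedSectionVars false
set_option linter.style.longLine false

namespace Cfsg.Agent.Lib.U62Iso

open Cfsg Subgroup Matrix
open Cfsg.Agent.Lib.Golay.Core Cfsg.Agent.Lib.F4Code Cfsg.Agent.Lib.PSUBridge
open Cfsg.Agent.Lib.U62Iso.Data
open _root_.Cfsg.Agent.Lib.PermComp _root_.Cfsg.Agent.Lib.PermComp.Core
open Cfsg.Agent.Lib.LeechP

local notation "RR" => Rep 10 1023 (Equiv.refl (Fin 891))

/-! ## Spans of three vectors -/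

section Sets

variable {F : Type*} [Field F] {n : ℕ} {q : ℕ}

/-- The span of three vectors. -/
def Sp3 (a b c : Fin n → F) : ScSet n F :=
  ⟨{v | ∃ s t u : F, v = s • a + t • b + u • c}, by
    rintro d - _ ⟨s, t, u, rfl⟩
    exact ⟨d * s, d * t, d * u, by rw [smul_add, smul_add, smul_smul, smul_smul, smul_smul]⟩⟩

theorem a_mem_Sp3 (a b c : Fin n → F) : a ∈ (Sp3 a b c).1 := ⟨1, 0, 0, by simp⟩
theorem b_mem_Sp3 (a b c : Fin n → F) : b ∈ (Sp3 a b c).1 := ⟨0, 1, 0, by simp⟩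
theorem c_mem_Sp3 (a b c : Fin n → F) : c ∈ (Sp3 a b c).1 := ⟨0, 0, 1, by simp⟩

theorem Sp3_le {a b c a' b' c' : Fin n → F} (h1 : a ∈ (Sp3 a' b' c').1) (h2 : b ∈ (Sp3 a' b' c').1)
    (h3 : c ∈ (Sp3 a' b' c').1) {v : Fin n → F} (hv : v ∈ (Sp3 a b c).1) : v ∈ (Sp3 a' b' c').1 := by
  obtain ⟨s, t, u, rfl⟩ := hv
  obtain ⟨s1, t1, u1, rfl⟩ := h1
  obtain ⟨s2, t2, u2, rfl⟩ := h2
  obtain ⟨s3, t3, u3, rfl⟩ := h3
  refine ⟨s * s1 + t * s2 + u * s3, s * t1 + t * t2 + u * t3, s * u1 + t * u2 + u * u3, ?_⟩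
  ext i
  simp only [Pi.add_apply, Pi.smul_apply, smul_eq_mul]
  ring

theorem Sp3_eq {a b c a' b' c' : Fin n → F} (h1 : a ∈ (Sp3 a' b' c').1) (h2 : b ∈ (Sp3 a' b' c').1)
    (h3 : c ∈ (Sp3 a' b' c').1) (h4 : a' ∈ (Sp3 a b c).1) (h5 : b' ∈ (Sp3 a b c).1) (h6 : c' ∈ (Sp3 a b c).1) :
    Sp3 a b c = Sp3 a' b' c' := by
  apply Subtype.ext
  ext v
  exact ⟨fun hv => Sp3_le h1 h2 h3 hv, fun hv => Sp3_le h4 h5 h6 hv⟩

theorem actS_Sp3 (g : ↥(Cfsg.SU n F q)) (a b c : Fin n → F) :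
    actS g (Sp3 a b c) = Sp3 (actV g a) (actV g b) (actV g c) := by
  apply Subtype.ext
  ext v
  rw [actS_coe]
  constructor
  · rintro ⟨_, ⟨s, t, u, rfl⟩, rfl⟩
    exact ⟨s, t, u, by rw [actV_add, actV_add, actV_smul, actV_smul, actV_smul]⟩
  · rintro ⟨s, t, u, rfl⟩
    exact ⟨s • a + t • b + u • c, ⟨s, t, u, rfl⟩, by rw [actV_add, actV_add, actV_smul, actV_smul, actV_smul]⟩

theorem herm_of_mem_Sp3 {a b c v d : Fin n → F} (hv : v ∈ (Sp3 a b c).1)
    (h1 : Cfsg.hermForm n F q a d = 0) (h2 : Cfsg.hermForm n F q b d = 0) (h3 : Cfsg.hermForm n F q c d = 0) :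
    Cfsg.hermForm n F q v d = 0 := by
  obtain ⟨s, t, u, rfl⟩ := hv
  have : Cfsg.hermForm n F q (s • a + t • b + u • c) d =
      s * Cfsg.hermForm n F q a d + t * Cfsg.hermForm n F q b d + u * Cfsg.hermForm n F q c d := by
    unfold Cfsg.hermForm
    rw [Finset.mul_sum, Finset.mul_sum, Finset.mul_sum, ← Finset.sum_add_distrib, ← Finset.sum_add_distrib]
    apply Finset.sum_congr rfl
    intro i _
    simp only [Pi.add_apply, Pi.smul_apply, smul_eq_mul]
    ring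
  rw [this, h1, h2, h3]
  ring

end Sets

/-! ## Code-level tests -/

/-- The first vector of the space of a point. -/
def pA (y : ℕ) : ℕ := Nat.land (Nat.shiftRight ST (72 * y)) 16777215
/-- The second vector of the space of a point. -/
def pB (y : ℕ) : ℕ := Nat.land (Nat.shiftRight ST (72 * y + 24)) 16777215
/-- The third vector of the space of a point. -/
def pC (y : ℕ) : ℕ := Nat.land (Nat.shiftRight ST (72 * y + 48)) 16777215

/-- A packed vector. -/
def pack6 (a0 a1 a2 a3 a4 a5 : ℕ) : ℕ :=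
  a0 + a1 * 16 + a2 * 256 + a3 * 4096 + a4 * 65536 + a5 * 1048576

/-- A matrix times a vector. -/
def av (N V : ℕ) : ℕ := pack6 (mvi 6 N V 0) (mvi 6 N V 1) (mvi 6 N V 2) (mvi 6 N V 3) (mvi 6 N V 4) (mvi 6 N V 5)

/-- A combination, at one coordinate. -/
def cmb3 (s a t b u c j : ℕ) : ℕ := addC (addC (mulC s (vv a j)) (mulC t (vv b j))) (mulC u (vv c j))

/-- `x` is in the span of `a`, `b`, `c`. -/
def sp3B (a b c x : ℕ) : Bool :=
  (List.range 4).any fun s => (List.range 4).any fun t => (List.range 4).any fun u =>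
    allUpTo (fun j => Nat.beq (vv x j) (cmb3 s a t b u c j)) 6

/-- The space of the image of a point is the image of its space. -/
def genOK (N c : ℕ) : Bool :=
  allUpTo (fun y => Cfsg.Agent.Lib.Leech.Cert.forceN (av N (pA y)) fun a' =>
    Cfsg.Agent.Lib.Leech.Cert.forceN (av N (pB y)) fun b' =>
    Cfsg.Agent.Lib.Leech.Cert.forceN (av N (pC y)) fun c' =>
    Cfsg.Agent.Lib.Leech.Cert.forceN (app 10 1023 c y) fun z =>
    Cfsg.Agent.Lib.Leech.Cert.forceN (pA z) fun a'' =>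
    Cfsg.Agent.Lib.Leech.Cert.forceN (pB z) fun b'' =>
    Cfsg.Agent.Lib.Leech.Cert.forceN (pC z) fun c'' =>
    sp3B a' b' c' a'' && (sp3B a' b' c' b'' && (sp3B a' b' c' c'' &&
      (sp3B a'' b'' c'' a' && (sp3B a'' b'' c'' b' && sp3B a'' b'' c'' c'))))) 891

/-- A witness that the space of `y` is not the space of `z`. -/
def sepB (y z : ℕ) : Bool :=
  [pA y, pB y, pC y].any fun u => [pA z, pB z, pC z].any fun v =>
    !(Nat.beq (hC 6 u v) 0) && (Nat.beq (hC 6 (pA z) v) 0 && (Nat.beq (hC 6 (pB z) v) 0 && Nat.beq (hC 6 (pC z) v) 0))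

/-- The spaces of the points of the base differ from the others. -/
def baseOK : Bool :=
  [13, 9, 6, 3, 7, 5, 2, 0, 1].all fun y => allUpTo (fun z => Nat.beq y z || sepB y z) 891

theorem baseOK_true : baseOK = true := by decide +kernel

def Ac : ℕ := Apows.getD 1 0
def Bc : ℕ := Bpows.getD 1 0
def Ic : ℕ := Apows.getD 0 0

theorem gen1 : genOK Ac ca = true := by decide +kernel
theorem gen2 : genOK Bc cb = true := by decide +kernel

theorem A_pow : ∀ k < 10, mmB 6 (Apows.getD k 0) Ac (Apows.getD (k + 1) 0) = true := by decide +kernel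
theorem A_0 : Apows.getD 0 0 = Ic := rfl
theorem A_10 : Apows.getD 10 0 = Ic := by decide +kernel
theorem B_pow : ∀ k < 8, mmB 6 (Bpows.getD k 0) Bc (Bpows.getD (k + 1) 0) = true := by decide +kernel
theorem B_0 : Bpows.getD 0 0 = Ic := by decide +kernel
theorem B_8 : Bpows.getD 8 0 = Ic := by decide +kernel
theorem A_orth : orthB 6 Ac = true := by decide +kernel
theorem B_orth : orthB 6 Bc = true := by decide +kernel
theorem I_entries : ∀ a < 6, ∀ b < 6, e 6 Ic a b = if a = b then 1 else 0 := by decide +kernel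

/-! ## The field -/

section K

variable {K : Type*} [Field K] [Fintype K] (hK : Fintype.card K = 4)
variable {w : K} (hw : w ^ 2 + w + 1 = 0) (h2 : (2 : K) = 0)

include hw h2

theorem id_toK : toK 6 w Ic = 1 := by
  ext a b
  rw [toK_apply, I_entries a.1 a.2 b.1 b.2, Matrix.one_apply]
  by_cases h : a = b
  · subst h
    simp [φ_one hw h2]
  · have : a.1 ≠ b.1 := fun h' => h (Fin.ext h')
    simp [h, this, φ_zero hw h2]

omit hw h2 in
theorem vv_eq (n j : ℕ) : vv n j = n / 2 ^ (4 * j) % 16 := by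
  unfold vv
  have := Nat.and_two_pow_sub_one_eq_mod (Nat.shiftRight n (4 * j)) 4
  rw [show (2 ^ 4 - 1 : ℕ) = 15 from rfl] at this
  show (Nat.shiftRight n (4 * j)) &&& 15 = _
  rw [this]
  show (n >>> (4 * j)) % 2 ^ 4 = _
  rw [Nat.shiftRight_eq_div_pow]

omit hw h2 in
theorem vv_pack (a0 a1 a2 a3 a4 a5 : ℕ) (h0 : a0 < 4) (h1 : a1 < 4) (h2 : a2 < 4) (h3 : a3 < 4) (h4 : a4 < 4) (h5 : a5 < 4) :
    vv (pack6 a0 a1 a2 a3 a4 a5) 0 = a0 ∧ vv (pack6 a0 a1 a2 a3 a4 a5) 1 = a1 ∧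
    vv (pack6 a0 a1 a2 a3 a4 a5) 2 = a2 ∧ vv (pack6 a0 a1 a2 a3 a4 a5) 3 = a3 ∧
    vv (pack6 a0 a1 a2 a3 a4 a5) 4 = a4 ∧ vv (pack6 a0 a1 a2 a3 a4 a5) 5 = a5 := by
  simp only [vv_eq]
  unfold pack6
  norm_num
  omega

theorem toV_av (N V : ℕ) : toV 6 w (av N V) = toK 6 w N *ᵥ toV 6 w V := by
  have hlt : ∀ a, mvi 6 N V a < 4 := fun a => sumC_lt _ _
  obtain ⟨k0, k1, k2, k3, k4, k5⟩ := vv_pack _ _ _ _ _ _ (hlt 0) (hlt 1) (hlt 2) (hlt 3) (hlt 4) (hlt 5)
  funext t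
  rw [mv_toV hw h2]
  show φ w (vv (av N V) t.1) = _
  unfold av
  fin_cases t
  · show φ w (vv _ 0) = _
    rw [k0]
  · show φ w (vv _ 1) = _
    rw [k1]
  · show φ w (vv _ 2) = _
    rw [k2]
  · show φ w (vv _ 3) = _
    rw [k3]
  · show φ w (vv _ 4) = _
    rw [k4]
  · show φ w (vv _ 5) = _
    rw [k5]

theorem sp3_sound {a b c x : ℕ} (h : sp3B a b c x = true) :
    toV 6 w x ∈ (Sp3 (toV 6 w a) (toV 6 w b) (toV 6 w c)).1 := by
  unfold sp3B at h
  simp only [List.any_eq_true] at h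
  obtain ⟨s, -, t, -, u, -, h1⟩ := h
  refine ⟨φ w s, φ w t, φ w u, ?_⟩
  funext j
  have h3 := Nat.eq_of_beq_eq_true (allUpTo_iff.mp h1 j.1 j.2)
  simp only [Pi.add_apply, Pi.smul_apply, smul_eq_mul]
  rw [toV_apply, h3]
  unfold cmb3
  rw [φ_add hw h2, φ_add hw h2, φ_mul hw h2, φ_mul hw h2, φ_mul hw h2]
  rfl

/-- The sets attached to the points. -/
def LL (w : K) (y : Fin 891) : ScSet 6 K := Sp3 (toV 6 w (pA y.1)) (toV 6 w (pB y.1)) (toV 6 w (pC y.1))

omit h2 hw in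
include hK in
theorem one_of_pow {m : ℕ} {d : K} (hm : Nat.Coprime m 3) (hd : d ^ m = 1) : d = 1 := by
  have hd0 : d ≠ 0 := by
    rintro rfl
    have hm0 : m ≠ 0 := by
      rintro rfl
      norm_num at hm
    rw [zero_pow hm0] at hd
    exact zero_ne_one hd
  have h8 : d ^ 3 = 1 := cube_one hK hd0
  have h9 := (pow_gcd_eq_one (a := d) (m := m) (n := 3)).2 ⟨hd, h8⟩
  rw [Nat.Coprime.gcd_eq_one hm, pow_one] at h9
  exact h9

theorem pow_list {L : List ℕ} {A : ℕ} {m : ℕ} (h : ∀ k < m, mmB 6 (L.getD k 0) A (L.getD (k + 1) 0) = true)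
    (h0 : L.getD 0 0 = Ic) {k : ℕ} (hk : k ≤ m) : toK 6 w (L.getD k 0) = toK 6 w A ^ k := by
  induction k with
  | zero =>
    rw [pow_zero, h0, id_toK hw h2]
  | succ k ih =>
    rw [pow_succ, ← ih (by omega), mm_toK hw h2 (h k (by omega))]

include hK in
theorem det_A : (toK 6 w Ac).det = 1 := by
  refine one_of_pow hK (m := 10) (by norm_num) ?_
  rw [← Matrix.det_pow, ← pow_list hw h2 A_pow A_0 le_rfl, A_10, id_toK hw h2, Matrix.det_one]

include hK in
theorem det_B : (toK 6 w Bc).det = 1 := by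
  refine one_of_pow hK (m := 8) (by norm_num) ?_
  rw [← Matrix.det_pow, ← pow_list hw h2 B_pow B_0 le_rfl, B_8, id_toK hw h2, Matrix.det_one]

/-- The first element of `SU₆(2)`. -/
noncomputable def x1 (hK : Fintype.card K = 4) (hw : w ^ 2 + w + 1 = 0) (h2 : (2 : K) = 0) : ↥(SU 6 K 2) :=
  ⟨⟨toK 6 w Ac, det_A hK hw h2⟩, iso_of_orth hw h2 A_orth⟩

/-- The second element of `SU₆(2)`. -/
noncomputable def x2 (hK : Fintype.card K = 4) (hw : w ^ 2 + w + 1 = 0) (h2 : (2 : K) = 0) : ↥(SU 6 K 2) :=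
  ⟨⟨toK 6 w Bc, det_B hK hw h2⟩, iso_of_orth hw h2 B_orth⟩

theorem gen_sound {N c : ℕ} {h : Equiv.Perm (Fin 891)} {x : ↥(SU 6 K 2)}
    (hx : ((x.1 : Matrix.SpecialLinearGroup (Fin 6) K) : Matrix (Fin 6) (Fin 6) K) = toK 6 w N)
    (hrep : RR c h) (hok : genOK N c = true) (y : Fin 891) :
    LL w (h y) = actS x (LL w y) := by
  have h1 := allUpTo_iff.1 hok y.1 y.2
  simp only [Cfsg.Agent.Lib.Leech.Cert.forceN_eq, Bool.and_eq_true] at h1
  obtain ⟨e1, e2, e3, e4, e5, e6⟩ := h1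
  have hz : app 10 1023 c y.1 = (h y).1 := hrep y
  rw [hz] at e1 e2 e3 e4 e5 e6
  have hact : ∀ V, actV x (toV 6 w V) = toV 6 w (av N V) := by
    intro V
    rw [toV_av hw h2]
    show ((x.1 : Matrix.SpecialLinearGroup (Fin 6) K) : Matrix (Fin 6) (Fin 6) K).mulVec _ = _
    rw [hx]
  unfold LL
  rw [actS_Sp3, hact, hact, hact]
  exact Sp3_eq (sp3_sound hw h2 e1) (sp3_sound hw h2 e2) (sp3_sound hw h2 e3)
    (sp3_sound hw h2 e4) (sp3_sound hw h2 e5) (sp3_sound hw h2 e6)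

/-- The spaces separate. -/
theorem LL_ne {y z : Fin 891} (hy : y.1 ∈ [13, 9, 6, 3, 7, 5, 2, 0, 1]) (hne : y ≠ z) : LL w y ≠ LL w z := by
  intro he
  have h1 := List.all_eq_true.1 baseOK_true y.1 hy
  have h3' := allUpTo_iff.1 h1 z.1 z.2
  have h4 : sepB y.1 z.1 = true := by
    cases h0 : Nat.beq y.1 z.1 with
    | true => exact absurd (Fin.ext (Nat.eq_of_beq_eq_true h0)) hne
    | false =>
      rw [h0] at h3'
      simpa using h3'
  unfold sepB at h4
  simp only [List.any_eq_true, Bool.and_eq_true] at h4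
  obtain ⟨u, hu, v, -, e1, e2, e3, e4⟩ := h4
  have hmem : toV 6 w u ∈ (LL w z).1 := by
    rw [← he]
    simp only [List.mem_cons, List.not_mem_nil, or_false] at hu
    rcases hu with rfl | rfl | rfl
    · exact a_mem_Sp3 _ _ _
    · exact b_mem_Sp3 _ _ _
    · exact c_mem_Sp3 _ _ _
  exact herm_ne hw h2 e1 (herm_of_mem_Sp3 hmem (herm_zero hw h2 e2) (herm_zero hw h2 e3) (herm_zero hw h2 e4))

end K

section Final

variable {K : Type*} [Field K] [Fintype K] (hK : Fintype.card K = 4)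
include hK

theorem card_PSU62 : Nat.card (PSU 6 K 2) = 9196830720 := by
  have hF : Fintype.card K = 2 ^ 2 := by rw [hK]; norm_num
  have h := Cfsg.Agent.Lib.Classical.HermOrders.card_PSU hF 6 (by norm_num)
  have e1 : ∏ i ∈ Finset.range 6, (if Even i then 2 ^ (i + 1) + 1 else 2 ^ (i + 1) - 1) = 2525985 := by
    decide
  rw [e1] at h
  norm_num at h
  omega

theorem iso_U : Nonempty (U ≃* PSU 6 K 2) := by
  classical
  obtain ⟨w, hw⟩ := Cfsg.Agent.S0819.exists_omega hK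
  have h2 : (2 : K) = 0 := two_zero hK
  have hq : Fintype.card K = 2 ^ 2 := by rw [hK]; norm_num
  have hfin : Finite (PSU 6 K 2) := inferInstance
  obtain ⟨g1, -, hg1⟩ := gens_rep ca (by rw [u_T_eq]; simp)
  obtain ⟨g2, -, hg2⟩ := gens_rep cb (by rw [u_T_eq]; simp)
  let ρ := rho hq (n := 6) (by norm_num)
  let S : Set (PSU 6 K 2 × Equiv.Perm (Fin 891)) :=
    {(QuotientGroup.mk (x1 hK hw h2), g1), (QuotientGroup.mk (x2 hK hw h2), g2)}
  refine bridge ρ (LL w) U S ?_ ?_ ?_ ?_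
  · intro s hs y
    rcases hs with rfl | hs
    · exact gen_sound hw h2 (N := Ac) rfl hg1 gen1 y
    · rw [Set.mem_singleton_iff] at hs
      subst hs
      exact gen_sound hw h2 (N := Bc) rfl hg2 gen2 y
  · show Subgroup.closure _ = Subgroup.closure _
    congr 1
    ext g
    constructor
    · rintro ⟨c, hc, hg⟩
      rw [u_T_eq] at hc
      simp only [List.mem_cons, List.not_mem_nil, or_false] at hc
      rcases hc with rfl | rfl
      · exact ⟨_, Or.inl rfl, (hg.unique hg1).symm⟩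
      · exact ⟨_, Or.inr rfl, (hg.unique hg2).symm⟩
    · rintro ⟨s, hs, rfl⟩
      rcases hs with rfl | hs
      · exact ⟨ca, by rw [u_T_eq]; simp, hg1⟩
      · rw [Set.mem_singleton_iff] at hs
        subst hs
        exact ⟨cb, by rw [u_T_eq]; simp, hg2⟩
  · intro b hb hL
    apply U_base b hb
    intro y hy
    by_contra hne
    exact LL_ne hw h2 hy (Ne.symm hne) (hL y).symm
  · rw [card_U, card_PSU62 hK]

end Final

end Cfsg.Agent.Lib.U62Iso
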